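import Cfsg.Agent.H2.MinIdx.Fourier

/-!
The subgroup of `Sp_{2m}(2)` fixing a quadratic form of minus type.
-/

set_option autoImplicit false

namespace Cfsg.Agent.H2.MinTwo

open Matrix MulAction Cfsg.Agent.H2.MinIdx

variable {F : Type*} [Field F] [Fintype F] {m : ℕ}

local notation "⟪" u ", " v "⟫" => Cfsg.sympForm _ F u v
local notation "Vl" => Fin m ⊕ Fin m → F

/-- A quadratic form polarising to the symplectic form. -/
def form2 (v : Fin m ⊕ Fin m → F) : (Fin m ⊕ Fin m → F) → F := fun x => qf 0 0 x + ⟪x, v⟫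

/-- The subgroup of index `2 ^ (m - 1) * (2 ^ m - 1)`. -/
theorem exists_minus (hF : Fintype.card F = 2) (hm : 1 ≤ m) :
    ∃ H : Subgroup (Matrix.symplecticGroup (Fin m) F), H.index = 2 ^ (m - 1) * (2 ^ m - 1) := by
  classical
  have h2 : (2 : F) = 0 := by
    have := FiniteField.cast_card_eq_zero F
    rw [hF] at this
    exact_mod_cast this
  have h01 : ∀ t : F, t = 0 ∨ t = 1 := fun t => by
    by_cases h : t = 0
    · exact Or.inl h
    · refine Or.inr ?_
      obtain ⟨y, -, hy⟩ := (Nat.card_eq_two_iff' (0 : F)).mp (by rw [Nat.card_eq_fintype_card, hF])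
      rw [hy t h, hy 1 one_ne_zero]
  have hsw : ∀ u v : Vl, ⟪v, u⟫ = ⟪u, v⟫ := fun u v => by
    rw [sympForm_swap]; linear_combination -⟪u, v⟫ * h2
  let _ : MulAction (Matrix.symplecticGroup (Fin m) F) (Vl → F) := arrowAction
  -- transvections on forms
  have htr : ∀ a v : Vl, (transv a (1 : F)) • form2 v = form2 (v + (form2 v a + 1) • a) := by
    intro a v
    funext x
    show form2 v (MinIdx.act (transv a (1 : F))⁻¹ x) = _
    have hinv : (transv a (1 : F))⁻¹ = transv a 1 := by
      refine inv_eq_of_mul_eq_one_right ?_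
      rw [transv_mul, show (1 : F) + 1 = 0 by linear_combination h2, transv_zero]
    rw [hinv, act_transv, one_mul]
    unfold form2
    rw [fadd_r, fsmul_r]
    rcases h01 ⟪x, a⟫ with h | h <;> rw [h]
    · rw [zero_smul, add_zero, mul_zero, add_zero]
    · rw [one_smul, qf_add h2, fadd_l, hsw x a, h]
      ring
  have hinj : Function.Injective (form2 (F := F) (m := m)) := fun v w h => by
    have hz : ∀ x, ⟪v - w, x⟫ = 0 := fun x => by
      have := congrFun h x
      unfold form2 at this
      rw [fsub_l, hsw x v, hsw x w]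
      linear_combination this
    exact sub_eq_zero.mp (sympForm_eq_zero_forall hz)
  let S : Set (Vl → F) := form2 '' {v | qf 0 0 v = 1}
  have hS : ∀ g : Matrix.symplecticGroup (Fin m) F, ∀ f ∈ S, g • f ∈ S := by
    intro g
    have hg : g ∈ Subgroup.closure {x | ∃ (v : Vl) (c : F), x = transv v c} := by
      rw [closure_transv_eq_top]; trivial
    have hgen : ∀ (v : Vl) (c : F), ∀ f ∈ S, transv v c • f ∈ S := by
      rintro a c f ⟨v, hv, rfl⟩
      rcases h01 c with rfl | rfl
      · rw [transv_zero, one_smul]; exact ⟨v, hv, rfl⟩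
      · rw [htr]
        refine ⟨_, ?_, rfl⟩
        show qf 0 0 _ = (1 : F)
        rcases h01 (form2 v a) with h | h <;> rw [h]
        · rw [zero_add, one_smul, qf_add h2, show qf 0 0 v = (1 : F) from hv]
          unfold form2 at h
          linear_combination h
        · rw [show (1 : F) + 1 = 0 by linear_combination h2, zero_smul, add_zero]; exact hv
    induction hg using Subgroup.closure_induction_left with
    | one => intro f hf; rwa [one_smul]
    | mul_left x hx y _ ih =>
      obtain ⟨v, c, rfl⟩ := hx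
      intro f hf; rw [mul_smul]; exact hgen _ _ _ (ih f hf)
    | inv_mul_cancel x hx y _ ih =>
      obtain ⟨v, c, rfl⟩ := hx
      intro f hf
      rw [mul_smul, transv_inv]
      exact hgen _ _ _ (ih f hf)
  -- the number of minus forms
  have hcard : Nat.card {v : Vl // qf 0 0 v = (1 : F)} = 2 ^ (m - 1) * (2 ^ m - 1) := by
    have : CharP F 2 := CharTwo.of_one_ne_zero_of_two_eq_zero one_ne_zero h2
    obtain ⟨φ, hφ, -⟩ := exists_functional (p := 2) (⊥ : AddSubgroup F) bot_ne_top
    have hφ1 : φ 1 ≠ 0 := fun h => hφ (AddMonoidHom.ext fun t => by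
      rcases h01 t with rfl | rfl
      · simp
      · simpa using h)
    have hsum : ∑ a : Vl, sgn φ (qf 0 0 a) = (2 : ℤ) ^ m := by
      rw [sum_sgn_qf]
      simp [sum_sgn_plane φ hφ, hF]
    have hs : ∀ a : Vl, sgn φ (qf 0 0 a) = 1 - 2 * (if qf 0 0 a = (1 : F) then 1 else 0) := fun a => by
      rcases h01 (qf 0 0 a) with h | h <;> rw [h] <;> simp [sgn, hφ1]
    rw [Finset.sum_congr rfl fun a _ => hs a, Finset.sum_sub_distrib, ← Finset.mul_sum,
      Finset.sum_boole, Finset.sum_const, Finset.card_univ, Fintype.card_fun, Fintype.card_sum,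
      Fintype.card_fin, hF, ← two_mul, ← Fintype.card_subtype, ← Nat.card_eq_fintype_card] at hsum
    simp only [nsmul_one] at hsum
    obtain ⟨k, rfl⟩ : ∃ k, m = k + 1 := ⟨m - 1, by omega⟩
    push_cast at hsum
    rw [Nat.add_sub_cancel]
    have e1 : (2 : ℤ) ^ (2 * (k + 1)) = 4 * (2 ^ k * 2 ^ k) := by
      rw [← pow_add, show 2 * (k + 1) = k + k + 2 by ring, pow_add]; ring
    have e2 : (2 : ℤ) ^ (k + 1) = 2 * 2 ^ k := by rw [pow_succ]; ring
    rw [e1, e2] at hsum
    have e3 : (1 : ℕ) ≤ 2 ^ (k + 1) := Nat.one_le_two_pow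
    zify [e3]
    rw [e2]
    linarith
  obtain ⟨v0, hv0⟩ : ∃ v : Vl, qf 0 0 v = (1 : F) := by
    have : 0 < Nat.card {v : Vl // qf 0 0 v = (1 : F)} := by
      rw [hcard]
      have : 2 ≤ 2 ^ m := Nat.le_self_pow (by omega) 2
      exact Nat.mul_pos (by positivity) (by omega)
    obtain ⟨⟨v, hv⟩⟩ := (Nat.card_pos_iff.mp this).1
    exact ⟨v, hv⟩
  have horb : orbit (Matrix.symplecticGroup (Fin m) F) (form2 v0) = S := by
    refine Set.Subset.antisymm ?_ ?_
    · rintro _ ⟨g, rfl⟩; exact hS g _ ⟨v0, hv0, rfl⟩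
    · rintro _ ⟨v, hv, rfl⟩
      refine ⟨transv (v0 + v) 1, ?_⟩
      show transv (v0 + v) (1 : F) • form2 v0 = form2 v
      have hz : form2 v0 (v0 + v) = (0 : F) := by
        unfold form2
        rw [qf_add h2, hv0, show qf 0 0 v = (1 : F) from hv, fadd_l, sympForm_self, zero_add]
        linear_combination (1 + ⟪v, v0⟫) * h2
      rw [htr, hz, zero_add, one_smul, show v0 + (v0 + v) = v by
        rw [← add_assoc, ← two_smul F v0, h2, zero_smul, zero_add]]
  refine ⟨stabilizer (Matrix.symplecticGroup (Fin m) F) (form2 v0), ?_⟩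
  rw [index_stabilizer, horb, Set.ncard_image_of_injective _ hinj, ← hcard, ← Nat.card_coe_set_eq]
  rfl

end Cfsg.Agent.H2.MinTwo
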