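import Cfsg.Agent.H2.MinTwo.Centres
import Cfsg.Agent.H2.MinIdx.Split

/-!
Every proper subgroup of `Sp_{2m}(2)` has index at least `2 ^ (m - 1) * (2 ^ m - 1)`.
-/

set_option autoImplicit false

namespace Cfsg.Agent.H2.MinTwo

open Matrix MulAction Cfsg.Agent.H2.MinIdx
open scoped Pointwise

variable {F : Type*} [Field F] [Fintype F] {j : ℕ}
variable {Ω : Type*} [MulAction (Matrix.symplecticGroup (Fin (j + 1 + 1)) F) Ω]

local notation "⟪" u ", " v "⟫" => Cfsg.sympForm _ F u v
local notation "Vl" => Fin (j + 1 + 1) ⊕ Fin (j + 1 + 1) → F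
local notation "Gl" => Matrix.symplecticGroup (Fin (j + 1 + 1)) F

omit [Fintype F] in
lemma transv_zero_vec (c : F) : transv (0 : Vl) c = 1 := by
  have h := transv_smul (0 : Vl) (0 : F) c
  rwa [zero_smul, mul_zero, zero_mul, transv_zero] at h

/-- The whole radical at `p` fixes `ω`. -/
def AllFix (p : Fin (j + 1 + 1) ⊕ Fin (j + 1 + 1) → F) (ω : Ω) : Prop :=
  p ≠ 0 ∧ ∀ a, ⟪a, p⟫ = 0 → ∀ t, qel p a t • ω = ω

omit [Fintype F] in
lemma qel_fix_smul {p a : Vl} {t : F} {ω : Ω} (g : Gl) (h : qel p a t • ω = ω) :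
    qel (act g p) (act g a) t • (g • ω) = g • ω := by
  rw [← qel_conj, smul_smul, inv_mul_cancel_right, mul_smul, h]

omit [Fintype F] in
lemma AllFix.act {p : Vl} {ω : Ω} (h : AllFix p ω) (g : Gl) :
    AllFix (MinIdx.act g p) (g • ω) := by
  refine ⟨act_ne_zero g h.1, fun a ha t => ?_⟩
  have h1 : ⟪MinIdx.act g⁻¹ a, p⟫ = 0 := by
    rw [← form_act g, act_act_inv]; exact ha
  have := qel_fix_smul g (h.2 _ h1 t)
  rwa [act_act_inv] at this

variable [Finite Ω]

/-- The alternative at an arbitrary centre. -/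
theorem centre_cases (hF : Fintype.card F = 2)
    (hsmall : Nat.card Ω + 2 ^ (j + 1) < 2 * 2 ^ (2 * (j + 1))) (ω : Ω) {p : Vl} (hp : p ≠ 0) :
    (∀ a, ⟪a, p⟫ = 0 → ∃ t, qel p a t • ω = ω) ∨ transv p 1 • ω = ω := by
  have h2 := two_eq_zero hF
  obtain ⟨g, hg⟩ := exists_map_vec (e0_ne_zero (F := F) (n := j + 1)) hp
  change MinIdx.act g e0 = p at hg
  rcases aImg_cases hF hsmall (g⁻¹ • ω) with hA | ⟨-, hT⟩
  · left
    intro a ha
    set b := MinIdx.act g⁻¹ a with hb
    have hbe : ⟪b, e0⟫ = 0 := by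
      rw [hb, ← form_act g, act_act_inv, hg]; exact ha
    have hsplit : b = up (down b) + ⟪b, f0⟫ • e0 := by
      conv_lhs => rw [decomp b, fswap_zero hbe, zero_smul, add_zero, add_comm]
    obtain ⟨t, ht⟩ := mem_aImg.mp (show down b ∈ aImg (n := j + 1) (F := F) (g⁻¹ • ω) by rw [hA]; trivial)
    refine ⟨t, ?_⟩
    have e : qel e0 b t • g⁻¹ • ω = g⁻¹ • ω := by
      rw [hsplit, qel_shift (form_up_e0 _), h2, zero_mul, add_zero]; exact ht
    have := qel_fix_smul g e
    rwa [hg, smul_inv_smul, hb, act_act_inv] at this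
  · right
    have e : transv p (1 : F) = g * transv e0 1 * g⁻¹ := by
      rw [conj_transv]; exact congrArg (fun x => transv x (1 : F)) hg.symm
    rw [e, mul_smul, mul_smul, hT, smul_inv_smul]

omit [Finite Ω] in
/-- A transvection with non-orthogonal centre beside a full radical fixes everything. -/
lemma fix_all (hF : Fintype.card F = 2) {ω : Ω} {p s : Vl} (hp : AllFix p ω) (hs : transv s 1 • ω = ω)
    (hps : ⟪p, s⟫ ≠ 0) : ∀ g : Gl, g • ω = ω := by
  have h2 := two_eq_zero hF
  have hv : ∀ x : F, x ≠ 0 → x = 1 := fun x hx => (eq_or_eq_of_card_two hF x).resolve_left hx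
  have hps1 := hv _ hps
  have hsp1 : ⟪s, p⟫ = 1 := by rw [sympForm_swap, hps1, neg_eq hF]
  have hconj : ∀ {g : Gl} {a : Vl}, g • ω = ω → transv a 1 • ω = ω →
      transv (MinIdx.act g a) (1 : F) • ω = ω := fun {g a} hg ha => by
    rw [show transv (MinIdx.act g a) (1 : F) = g * transv a 1 * g⁻¹ from (conj_transv g a 1).symm,
      mul_smul, mul_smul, show g⁻¹ • ω = ω by rw [inv_smul_eq_iff, hg], ha, hg]
  have hout : ∀ b : Vl, ⟪b, p⟫ = 1 → transv b 1 • ω = ω := by
    intro b hb
    have ha : ⟪b - s, p⟫ = 0 := by rw [fsub_l, hb, hsp1, sub_self]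
    have h := hconj (hp.2 _ ha ⟪s, b - s⟫) hs
    rwa [show MinIdx.act (qel p (b - s) ⟪s, b - s⟫) s = b by
      rw [act_qel ha, hsp1]
      match_scalars
      all_goals first
        | ring1
        | linear_combination ⟪s, b - s⟫ * h2] at h
  have hall : ∀ a : Vl, transv a 1 • ω = ω := by
    intro a
    by_cases ha : ⟪a, p⟫ = 1
    · exact hout a ha
    have ha0 : ⟪a, p⟫ = 0 := (eq_or_eq_of_card_two hF _).resolve_right ha
    by_cases haz : a = 0
    · subst haz
      rw [transv_zero_vec (F := F), one_smul]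
    by_cases hap : a = p
    · subst hap
      have h := hp.2 0 (fzero_l _) 1
      rwa [qel_zero_vec] at h
    obtain ⟨d, hd⟩ : ∃ d, ⟪a, d⟫ ≠ 0 := by
      by_contra h; push Not at h; exact haz (sympForm_eq_zero_forall h)
    have hd1 := hv _ hd
    obtain ⟨b, hab, hbp⟩ : ∃ b, ⟪a, b⟫ = 1 ∧ ⟪b, p⟫ = 1 := by
      rcases eq_or_eq_of_card_two hF ⟪d, p⟫ with hdp | hdp
      · rcases eq_or_eq_of_card_two hF ⟪a, s⟫ with has | has
        · exact ⟨d + s, by rw [fadd_r, hd1, has, add_zero], by rw [fadd_l, hdp, hsp1, zero_add]⟩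
        · exact ⟨s, has, hsp1⟩
      · exact ⟨d, hd1, hdp⟩
    have h := hconj (hout b hbp) (hout (a + b) (by rw [fadd_l, ha0, hbp, zero_add]))
    rwa [show MinIdx.act (transv b (1 : F)) (a + b) = a by
      rw [act_transv, fadd_l, hab, sympForm_self]
      match_scalars
      all_goals first
        | ring1
        | linear_combination h2] at h
  intro g
  have : (⊤ : Subgroup Gl) ≤ stabilizer Gl ω := by
    rw [← closure_transv_eq_top, Subgroup.closure_le]
    rintro _ ⟨v, c, rfl⟩
    rcases eq_or_eq_of_card_two hF c with rfl | rfl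
    · show transv v (0 : F) • ω = ω
      rw [transv_zero, one_smul]
    · exact hall v
  exact this (Subgroup.mem_top g)

/-- The degree bound for `Sp_{2m}(2)`. -/
theorem two_bound [IsPretransitive Gl Ω] [Nonempty Ω] (hF : Fintype.card F = 2) (hj : 1 ≤ j)
    (hN : 2 ≤ Nat.card Ω) : 2 * 2 ^ (2 * (j + 1)) ≤ Nat.card Ω + 2 ^ (j + 1) := by
  classical
  by_contra! hsmall
  have h2 := two_eq_zero hF
  have hX : 2 ^ (2 * (j + 1 + 1)) = 4 * 2 ^ (2 * (j + 1)) := by
    rw [show 2 * (j + 1 + 1) = 2 * (j + 1) + 2 by ring, pow_add]; ring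
  have hnofix : ∀ ω : Ω, ¬ ∀ g : Gl, g • ω = ω := fun ω h => by
    have : Subsingleton Ω := ⟨fun x y => by
      obtain ⟨g, rfl⟩ := exists_smul_eq Gl ω x
      obtain ⟨k, rfl⟩ := exists_smul_eq Gl ω y
      rw [h g, h k]⟩
    have := Finite.card_le_one_iff_subsingleton.mpr this
    omega
  by_cases hI : ∃ (ω : Ω) (p : Vl), AllFix p ω
  · obtain ⟨ω, p, hp⟩ := hI
    let S : Set Vl := {x | AllFix x ω}
    have horth : ∀ a b, a ∈ S → b ∈ S → ⟪a, b⟫ = 0 := fun a b ha hb => by
      by_contra h
      refine hnofix ω (fix_all hF ha ?_ h)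
      have := hb.2 0 (fzero_l _) 1
      rwa [qel_zero_vec] at this
    let W := Submodule.span F S
    have hti : TI W := by
      intro x hx y hy
      have hy' : ∀ a, a ∈ S → ⟪a, y⟫ = 0 := fun a ha => by
        induction hy using Submodule.span_induction with
        | mem b hb => exact horth a b ha hb
        | zero => exact fzero_r a
        | add _ _ _ _ h1 h2 => rw [fadd_r, h1, h2, add_zero]
        | smul c _ _ h1 => rw [fsmul_r, h1, mul_zero]
      induction hx using Submodule.span_induction with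
      | mem a ha => exact hy' a ha
      | zero => exact fzero_l y
      | add _ _ _ _ h1 h2 => rw [fadd_l, h1, h2, add_zero]
      | smul c _ _ h1 => rw [fsmul_l, h1, mul_zero]
    have hW : W ≠ ⊥ := (Submodule.ne_bot_iff W).mpr ⟨p, Submodule.subset_span hp, hp.1⟩
    have hfix : ∀ g ∈ stabilizer Gl ω, g • W = W := by
      have hle : ∀ g ∈ stabilizer Gl ω, g • W ≤ W := fun g hg x hx => by
        rw [mem_smul_iff] at hx
        have : W ≤ W.comap (spRho (j + 1 + 1) F g) := Submodule.span_le.mpr fun a ha => by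
          have h := AllFix.act ha g
          rw [mem_stabilizer_iff.mp hg] at h
          simpa using Submodule.subset_span (R := F) (s := S) h
        have h3 := this hx
        rw [Submodule.mem_comap, spRho_apply] at h3
        rwa [show (g : Matrix _ _ F) *ᵥ MinIdx.act g⁻¹ x = x from act_act_inv g x] at h3
      intro g hg
      refine le_antisymm (hle g hg) fun x hx => ?_
      rw [mem_smul_iff]
      exact hle g⁻¹ ((stabilizer Gl ω).inv_mem hg) (act_mem_smul g⁻¹ hx)
    have h1 := ti_orbit_ge (j + 1) W hW hti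
    have h3 := index_ge_orbit W (card_orbit_eq_one hfix)
    rw [mul_one, index_stabilizer_of_transitive] at h3
    rw [hF, show (2 : ℕ) - 1 = 1 from rfl, mul_one, hX] at h1
    have : 1 ≤ 2 ^ (2 * (j + 1)) := Nat.one_le_two_pow
    have : 1 ≤ 2 ^ (j + 1) := Nat.one_le_two_pow
    omega
  push Not at hI
  by_cases hII : ∃ (ω : Ω) (p : Vl), p ≠ 0 ∧ transv p 1 • ω = ω
  · obtain ⟨ω, p, hp, hfixp⟩ := hII
    obtain ⟨g, hg⟩ := exists_map_vec (e0_ne_zero (F := F) (n := j + 1)) hp
    change MinIdx.act g e0 = p at hg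
    have hT : transv (e0 : Vl) 1 • g⁻¹ • ω = g⁻¹ • ω := by
      have e : transv (e0 : Vl) (1 : F) = g⁻¹ * transv p 1 * g := by
        rw [← hg, show transv (MinIdx.act g e0) (1 : F) = g * transv e0 1 * g⁻¹ from (conj_transv g e0 1).symm]
        group
      rw [e, mul_smul, smul_inv_smul, mul_smul, hfixp]
    set ω' := g⁻¹ • ω
    have hQ : ∀ (a : Fin (j + 1) ⊕ Fin (j + 1) → F) (t : F),
        transv (e0 : Vl) 1 • qel e0 (up a) t • ω' = qel e0 (up a) t • ω' := fun a t => by
      rw [smul_smul, transv_qel_comm, mul_smul, hT]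
    have hA : aImg (n := j + 1) (F := F) ω' = ⊥ := by
      rcases aImg_cases hF hsmall ω' with hA | ⟨hA, -⟩
      swap
      · exact hA
      exfalso
      refine hI ω' e0 ⟨e0_ne_zero, fun a ha t => ?_⟩
      have hsplit : a = up (down a) + ⟪a, f0⟫ • e0 := by
        conv_lhs => rw [decomp a, fswap_zero ha, zero_smul, add_zero, add_comm]
      rw [hsplit, qel_shift (form_up_e0 _), h2, zero_mul, add_zero]
      obtain ⟨s, hs⟩ := mem_aImg.mp (show down a ∈ aImg (n := j + 1) (F := F) ω' by rw [hA]; trivial)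
      rcases eq_or_eq_of_card_two hF (t + s) with h | h
      · rw [show t = s by linear_combination h - s * h2]; exact hs
      · have e : transv e0 (1 : F) * qel e0 (up (down a)) s = qel e0 (up (down a)) t := by
          rw [show transv e0 (1 : F) = qel e0 (up (0 : Fin (j + 1) ⊕ Fin (j + 1) → F)) 1 by
            rw [map_zero, qel_zero_vec], qel_up_mul, zero_add, fzero_r, add_zero]
          congr 1
          linear_combination s * h2 - h
        rw [← e, mul_smul, hs, hT]
    have hx : 2 ^ (2 * (j + 1)) ≤ fx Ω (transv (e0 : Vl) (1 : F)) := by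
      let f : (Fin (j + 1) ⊕ Fin (j + 1) → F) → fixedBy Ω (transv (e0 : Vl) (1 : F)) :=
        fun a => ⟨qel e0 (up a) 0 • ω', hQ a 0⟩
      have hf : Function.Injective f := fun a b h => by
        have h' : ((qel e0 (up a) 0)⁻¹ * qel e0 (up b) 0) • ω' = ω' := by
          rw [mul_smul, inv_smul_eq_iff]; exact (congrArg Subtype.val h).symm
        rw [qel_up_inv, qel_up_mul] at h'
        have : -a + b ∈ aImg (n := j + 1) (F := F) ω' := mem_aImg.mpr ⟨_, h'⟩
        rw [hA, AddSubgroup.mem_bot, neg_add_eq_zero] at this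
        exact this
      have := Nat.card_le_card_of_injective f hf
      rwa [Nat.card_eq_fintype_card, Fintype.card_fun, Fintype.card_sum, Fintype.card_fin, hF,
        ← two_mul] at this
    obtain ⟨u, v, hNx, -⟩ := exists_mult (Ω := Ω) (n := j + 1) h2 (by omega)
    have hxN : fx Ω (transv (e0 : Vl) (1 : F)) ≤ Nat.card Ω :=
      Nat.card_le_card_of_injective _ Subtype.val_injective
    have huv : u = 0 ∧ v = 0 := by
      rw [hF] at hNx
      push_cast at hNx
      set x := fx Ω (transv (e0 : Vl) (1 : F))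
      set P := (2 : ℤ) ^ (j + 1) with hP
      have hP2 : (2 : ℤ) ≤ P := le_self_pow₀ (by norm_num) (by omega)
      have e2 : (2 : ℤ) ^ (2 * (j + 1)) = P * P := by rw [two_mul, pow_add]
      have hs : (Nat.card Ω : ℤ) + P < 2 * (P * P) := by
        rw [← e2, hP]; exact_mod_cast hsmall
      have hx' : P * P ≤ (x : ℤ) := by rw [← e2]; exact_mod_cast hx
      rw [pow_succ (2 : ℤ) (j + 1), ← hP] at hNx
      by_contra hne
      have h1 : (1 : ℤ) ≤ (u : ℤ) + v := by omega
      have h3 : (P - 1) * 1 ≤ (P - 1) * ((u : ℤ) + v) := mul_le_mul_of_nonneg_left h1 (by omega)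
      have h4 : P * (P - 1) ≤ P * ((u : ℤ) * (P + 1) + v * (P - 1)) := by
        refine mul_le_mul_of_nonneg_left ?_ (by omega)
        nlinarith
      nlinarith
    rw [huv.1, huv.2] at hNx
    simp only [Nat.cast_zero, zero_mul, add_zero, mul_zero] at hNx
    have hall : ∀ (q : Vl) (y : Ω), q ≠ 0 → transv q (1 : F) • y = y := fun q y hq => by
      have hc : fx Ω (transv q (1 : F)) = Nat.card Ω := by
        rw [fx_transv h2 hq one_ne_zero]; omega
      have huniv : fixedBy Ω (transv q (1 : F)) = Set.univ :=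
        Set.eq_of_subset_of_ncard_le (Set.subset_univ _) (by
          rw [Set.ncard_univ, ← Nat.card_coe_set_eq]; exact hc.ge)
      exact (Set.eq_univ_iff_forall.mp huniv y :)
    refine hnofix ω' fun k => ?_
    have : (⊤ : Subgroup Gl) ≤ stabilizer Gl ω' := by
      rw [← closure_transv_eq_top, Subgroup.closure_le]
      rintro _ ⟨q, c, rfl⟩
      show transv q c • ω' = ω'
      rcases eq_or_eq_of_card_two hF c with rfl | rfl
      · rw [transv_zero, one_smul]
      · by_cases hq : q = 0
        · subst hq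
          rw [transv_zero_vec (F := F), one_smul]
        · exact hall q ω' hq
    exact this (Subgroup.mem_top k)
  push Not at hII
  obtain ⟨ω⟩ : Nonempty Ω := inferInstance
  exact no_hyperplane hF (by omega) ω (fun p hp => hII ω p hp) fun p a hp ha =>
    ((centre_cases hF hsmall ω hp).resolve_right (hII ω p hp)) a ha

end Cfsg.Agent.H2.MinTwo
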