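import Cfsg.Agent.H2.MinTwo.Orbits

/-!
Stabilisers in `Sp_{2m}(2)` meeting every radical in a hyperplane not containing the centre do not exist.
-/

set_option autoImplicit false

namespace Cfsg.Agent.H2.MinTwo

open Matrix MulAction Cfsg.Agent.H2.MinIdx
open scoped Pointwise

variable {F : Type*} [Field F] [Fintype F] {m : ℕ}

local notation "⟪" u ", " v "⟫" => Cfsg.sympForm _ F u v

lemma neg_eq (hF : Fintype.card F = 2) (a : F) : -a = a := by
  linear_combination -a * two_eq_zero hF

/-- The symmetry of the elements with zero parameter. -/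
lemma qel_swap {a b : Fin m ⊕ Fin m → F} (h : ⟪a, b⟫ = 0) : qel b a 0 = qel a b 0 := by
  apply ext_of_mulVec
  intro x
  show act _ x = act _ x
  rw [act_qel h, act_qel (fswap_zero h)]
  module

lemma qel_one_param (hF : Fintype.card F = 2) (v a : Fin m ⊕ Fin m → F) :
    qel v a 1 = transv (a + v) 1 * transv a 1 := by
  rw [qel, sub_self, transv_zero, mul_one, neg_eq hF]

lemma qel_zero_param (hF : Fintype.card F = 2) (v a : Fin m ⊕ Fin m → F) :
    qel v a 0 = transv (a + v) 1 * transv a 1 * transv v 1 := by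
  rw [qel, zero_sub, neg_eq hF]

omit [Fintype F] in
lemma transv_comm {a b : Fin m ⊕ Fin m → F} (h : ⟪a, b⟫ = 0) :
    transv a (1 : F) * transv b 1 = transv b 1 * transv a 1 := by
  apply ext_of_mulVec
  intro x
  show act _ x = act _ x
  simp only [act_mul, act_transv, fadd_l, fsmul_l, h, fswap_zero h]
  module

variable {Ω : Type*} [MulAction (Matrix.symplecticGroup (Fin m) F) Ω]

/-- The three dimensional argument. -/
theorem no_hyperplane (hF : Fintype.card F = 2) (hm : 3 ≤ m) (ω : Ω)
    (hno : ∀ p : Fin m ⊕ Fin m → F, p ≠ 0 → transv p 1 • ω ≠ ω)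
    (hex : ∀ p a : Fin m ⊕ Fin m → F, p ≠ 0 → ⟪a, p⟫ = 0 → ∃ t, qel p a t • ω = ω) : False := by
  classical
  have h2 := two_eq_zero hF
  let E := fun (p a : Fin m ⊕ Fin m → F) (t : F) => qel p a t • ω = ω
  have haa : ∀ a : Fin m ⊕ Fin m → F, a + a = 0 := fun a => by
    rw [← two_smul F a, h2, zero_smul]
  have h01 : ∀ {p a}, p ≠ 0 → ⟪a, p⟫ = 0 → E p a 0 → E p a 1 → False := fun {p a} hp ha e0 e1 => by
    refine hno p hp ?_
    have e : qel p a 0 * qel p a 1 = transv p 1 := by
      rw [qel_mul ha ha, haa, qel_zero_vec, zero_add, sympForm_self, add_zero]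
    rw [← e, mul_smul, e1, e0]
  have hone : ∀ {p a}, p ≠ 0 → ⟪a, p⟫ = 0 → ¬ E p a 0 → E p a 1 := fun {p a} hp ha h => by
    obtain ⟨t, ht⟩ := hex p a hp ha
    rcases eq_or_eq_of_card_two hF t with rfl | rfl
    · exact absurd ht h
    · exact ht
  have hadd : ∀ {p a b t s}, ⟪a, p⟫ = 0 → ⟪b, p⟫ = 0 → E p a t → E p b s →
      E p (a + b) (t + s + ⟪b, a⟫) := fun {p a b t s} ha hb ea eb => by
    show qel _ _ _ • ω = ω
    rw [← qel_mul ha hb, mul_smul, eb, ea]
  have hz : ∀ p : Fin m ⊕ Fin m → F, E p 0 0 := fun p => by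
    show qel _ _ _ • ω = ω
    rw [qel_zero_zero, one_smul]
  have hscal : ∀ {p a}, E p a 1 → ∀ c : F, E p (c • a) c := fun {p a} h c => by
    rcases eq_or_eq_of_card_two hF c with rfl | rfl
    · rw [zero_smul]; exact hz p
    · rw [one_smul]; exact h
  have hzero : ∀ {p a}, E p a 0 → ∀ c : F, E p (c • a) 0 := fun {p a} h c => by
    rcases eq_or_eq_of_card_two hF c with rfl | rfl
    · rw [zero_smul]; exact hz p
    · rw [one_smul]; exact h
  have hself : ∀ p, E p p 0 := fun p => by
    show qel _ _ _ • ω = ω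
    have e : qel p ((0 : Fin m ⊕ Fin m → F) + (1 : F) • p) 0 = qel p 0 (0 + 2 * 1) :=
      qel_shift (fzero_l p) 1 0
    rw [zero_add, one_smul] at e
    rw [e, h2, zero_mul, add_zero, qel_zero_zero, one_smul]
  -- every parameter vanishes
  have key : ∀ p r, p ≠ 0 → ⟪r, p⟫ = 0 → E p r 0 := by
    intro p r hp hrp
    by_contra hn
    have hr : r ≠ 0 := fun h => hn (h ▸ hz p)
    have hrp' : r ≠ p := fun h => hn (h ▸ hself p)
    have hpr : ⟪p, r⟫ = 0 := fswap_zero hrp
    have epr : E p r 1 := hone hp hrp hn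
    have erp : E r p 1 := hone hr hpr fun h => hn (by
      show qel p r 0 • ω = ω
      rw [qel_swap hrp]; exact h)
    -- a third vector
    obtain ⟨s, hsp, hsr, hs⟩ : ∃ s, ⟪s, p⟫ = 0 ∧ ⟪s, r⟫ = 0 ∧ ∀ a b : F, s ≠ a • p + b • r := by
      let X : Submodule F (Fin m ⊕ Fin m → F) := Submodule.span F {p, r}
      have hX : Module.finrank F X ≤ 2 := by
        refine (finrank_span_le_card ({p, r} : Set (Fin m ⊕ Fin m → F))).trans ?_
        rw [Set.toFinset_insert, Set.toFinset_singleton]
        exact Finset.card_le_two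
      have hlt : ¬ perp X ≤ X := fun h => by
        have := Submodule.finrank_mono h
        rw [finrank_perp] at this
        omega
      obtain ⟨s, hs, hsX⟩ := SetLike.not_le_iff_exists.mp hlt
      refine ⟨s, fswap_zero (mem_perp.mp hs p (Submodule.subset_span (by simp))),
        fswap_zero (mem_perp.mp hs r (Submodule.subset_span (by simp))), fun a b h => hsX ?_⟩
      exact Submodule.mem_span_pair.mpr ⟨a, b, h.symm⟩
    obtain ⟨t1, ht1⟩ := hex p s hp hsp
    obtain ⟨t2, ht2⟩ := hex r s hr hsr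
    set o := s + (t1 • r + t2 • p) with ho
    have hor : ⟪o, r⟫ = 0 := by simp [ho, fadd_l, fsmul_l, hsr, hpr, sympForm_self]
    have hop : ⟪o, p⟫ = 0 := by simp [ho, fadd_l, fsmul_l, hsp, hrp, sympForm_self]
    have hpo := fswap_zero hop
    have hro := fswap_zero hor
    have epo : E p o 0 := by
      have ha : ⟪t1 • r, p⟫ = 0 := by rw [fsmul_l, hrp, mul_zero]
      have hb : ⟪t2 • p, p⟫ = 0 := by rw [fsmul_l, sympForm_self, mul_zero]
      have h := hadd hsp (by rw [fadd_l, ha, hb, add_zero]) ht1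
        (hadd ha hb (hscal epr t1) (hzero (hself p) t2))
      convert h using 2
      simp only [fadd_l, fsmul_l, fsmul_r, fswap_zero hsr, fswap_zero hsp, hpr, mul_zero, add_zero]
      linear_combination -t1 * h2
    have ero : E r o 0 := by
      have ha : ⟪t1 • r, r⟫ = 0 := by rw [fsmul_l, sympForm_self, mul_zero]
      have hb : ⟪t2 • p, r⟫ = 0 := by rw [fsmul_l, hpr, mul_zero]
      have h := hadd hsr (by rw [fadd_l, ha, hb, add_zero]) ht2
        (hadd ha hb (hzero (hself r) t1) (hscal erp t2))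
      convert h using 2
      simp only [fadd_l, fsmul_l, fsmul_r, fswap_zero hsr, fswap_zero hsp, hpr, mul_zero, add_zero]
      linear_combination -t2 * h2
    have hone' : ∀ u, ⟪u, r⟫ = 0 → E r u 1 → u + r ≠ 0 → E (u + r) r 1 := fun u hu eu hne => by
      have hur : ⟪u + r, r⟫ = 0 := by rw [fadd_l, hu, sympForm_self, add_zero]
      have h1 := hadd hu (sympForm_self r) eu (hself r)
      rw [fswap_zero hu, add_zero, add_zero] at h1
      refine hone hne (fswap_zero hur) fun h0 => h01 hr hur ?_ h1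
      show qel r (u + r) 0 • ω = ω
      rw [qel_swap hur]; exact h0
    have hpairT : ∀ u : Fin m ⊕ Fin m → F, ⟪u, r⟫ = 0 → E r u 1 → u + r ≠ 0 →
        (transv u 1 * transv r 1) • ω = ω := fun u hu eu hne => by
      have h : qel (u + r) r 1 • ω = ω := hone' u hu eu hne
      rwa [qel_one_param hF, show r + (u + r) = u by rw [add_comm u r, ← add_assoc, haa, zero_add]] at h
    have hT1 := hpairT p hpr erp fun h => hrp' (by
      rw [← add_zero r, ← haa p, ← add_assoc, add_comm r p, h, zero_add])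
    have hT2 := hpairT (o + p) (by rw [fadd_l, hor, hpr, add_zero]) (by
      have h := hadd hor hpr ero erp
      rwa [hpo, zero_add, add_zero] at h) fun h => hs (t2 + 1) (t1 + 1) (by
      have e : s + ((t2 + 1) • p + (t1 + 1) • r) = 0 := by rw [← h, ho]; module
      calc s = s + ((t2 + 1) • p + (t1 + 1) • r) + ((t2 + 1) • p + (t1 + 1) • r) := by
            rw [add_assoc, haa, add_zero]
        _ = _ := by rw [e, zero_add])
    have hprod : (transv (o + p) 1 * transv p 1) • ω = ω := by
      have e : transv (o + p) (1 : F) * transv r 1 * (transv p 1 * transv r 1) =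
          transv (o + p) 1 * transv p 1 := by
        rw [transv_comm hpr, mul_assoc, ← mul_assoc (transv r (1 : F)), transv_mul,
          show (1 : F) + 1 = 0 by linear_combination h2, transv_zero, one_mul]
      rw [← e, mul_smul, hT1, hT2]
    have ho0 : o ≠ 0 := fun h => hs t2 t1 (by
      calc s = s + ((t1 • r + t2 • p) + (t1 • r + t2 • p)) := by rw [haa, add_zero]
        _ = o + (t1 • r + t2 • p) := by rw [ho]; abel
        _ = _ := by rw [h, zero_add, add_comm])
    refine hno o ho0 ?_
    have h : qel o p 0 • ω = ω := by rw [qel_swap hpo]; exact epo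
    rw [qel_zero_param hF, add_comm p o, mul_smul] at h
    have h' := congrArg (fun x => (transv (o + p) (1 : F) * transv p 1)⁻¹ • x) h
    simp only [inv_smul_smul] at h'
    rw [h', inv_smul_eq_iff, hprod]
  -- the polar form
  let p : Fin m ⊕ Fin m → F := Pi.single (.inl ⟨0, by omega⟩) 1
  let r : Fin m ⊕ Fin m → F := Pi.single (.inl ⟨1, by omega⟩) 1
  let s : Fin m ⊕ Fin m → F := Pi.single (.inr ⟨1, by omega⟩) 1
  have hp : p ≠ 0 := by simp [p]
  have hrp : ⟪r, p⟫ = 0 := by simp [r, p, sympForm_single_inl]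
  have hsp : ⟪s, p⟫ = 0 := by simp [s, p, sympForm_single_inr]
  have hsr : ⟪s, r⟫ = 1 := by simp [s, r, sympForm_single_inr]
  have hrsp : ⟪r + s, p⟫ = 0 := by rw [fadd_l, hrp, hsp, add_zero]
  have h := hadd hrp hsp (key p r hp hrp) (key p s hp hsp)
  rw [zero_add, zero_add, hsr] at h
  exact h01 hp hrsp (key p (r + s) hp hrsp) h

end Cfsg.Agent.H2.MinTwo
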