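import Cfsg.Agent.H2.MinIdx.OddCase
import Cfsg.Agent.H2.MinIdx.EvenRoot

/-!
The radical of a point stabiliser over the field with two elements acting on a small set.
-/

set_option autoImplicit false

namespace Cfsg.Agent.H2.MinTwo

open Matrix MulAction Cfsg.Agent.H2.MinIdx
open scoped Pointwise

variable {F : Type*} [Field F] [Fintype F]

omit [Field F] in
lemma eq_or_eq_of_card_two [Zero F] [One F] [NeZero (1 : F)] (hF : Fintype.card F = 2) (t : F) :
    t = 0 ∨ t = 1 := by
  by_cases h : t = 0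
  · exact Or.inl h
  · refine Or.inr ?_
    obtain ⟨y, -, hy⟩ := (Nat.card_eq_two_iff' (0 : F)).mp (by rw [Nat.card_eq_fintype_card, hF])
    rw [hy t h, hy 1 one_ne_zero]

lemma two_eq_zero (hF : Fintype.card F = 2) : (2 : F) = 0 := by
  have := FiniteField.cast_card_eq_zero F
  rw [hF] at this
  exact_mod_cast this

variable {j : ℕ} {Ω : Type*} [MulAction (Matrix.symplecticGroup (Fin (j + 1 + 1)) F) Ω]

local notation "⟪" u ", " v "⟫" => Cfsg.sympForm _ F u v
local notation "Gl" => Matrix.symplecticGroup (Fin (j + 1)) F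

lemma smul_inf (g : Gl) (X Y : Submodule F (Fin (j + 1) ⊕ Fin (j + 1) → F)) :
    g • (X ⊓ Y) = g • X ⊓ g • Y := by
  ext x
  rw [mem_smul_iff, Submodule.mem_inf, Submodule.mem_inf, mem_smul_iff, mem_smul_iff]

/-- The image of the radical is everything, or trivial with the centre fixing the point. -/
theorem aImg_cases [Finite Ω] (hF : Fintype.card F = 2)
    (hsmall : Nat.card Ω + 2 ^ (j + 1) < 2 * 2 ^ (2 * (j + 1))) (ω : Ω) :
    aImg (n := j + 1) (F := F) ω = ⊤ ∨
      (aImg (n := j + 1) (F := F) ω = ⊥ ∧ transv (e0 : Fin (j + 1 + 1) ⊕ Fin (j + 1 + 1) → F) 1 • ω = ω) := by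
  classical
  set A := aImg (n := j + 1) (F := F) ω
  set Z := zSub (n := j + 1) (F := F) ω
  set k := (keep (n := j + 1) (F := F) ω).index with hk
  set X := 2 ^ (2 * (j + 1)) with hX
  have hinv := invariants_bound (n := j + 1) (F := F) ω
  have hsc : 1 ≤ Nat.card (scales Z) := by
    have : Nonempty (scales Z) := ⟨⟨_, 1, rfl⟩⟩
    exact Nat.card_pos
  have hkey : k * (2 * X) ≤ Nat.card Ω * (Nat.card Z * Nat.card A) := by
    refine le_trans ?_ hinv
    rw [hF, pow_succ, ← hX, ← hk, mul_comm X 2]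
    exact Nat.mul_le_mul_right _ (Nat.le_mul_of_pos_left k hsc)
  have hk1 : 1 ≤ k := Nat.pos_of_ne_zero Subgroup.index_ne_zero_of_finite
  have hZ2 : Nat.card Z ≤ 2 := by
    rw [← hF, ← Nat.card_eq_fintype_card]
    exact Nat.card_le_card_of_injective _ Subtype.val_injective
  -- `A` as a subspace
  let A' : Submodule F (Fin (j + 1) ⊕ Fin (j + 1) → F) :=
    { carrier := A
      zero_mem' := A.zero_mem
      add_mem' := A.add_mem
      smul_mem' := fun c x hx => by
        rcases eq_or_eq_of_card_two hF c with h | h <;> rw [h]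
        · rw [zero_smul]; exact A.zero_mem
        · rw [one_smul]; exact hx }
  set C := perp A' with hC
  set c := Module.finrank F C with hc
  have hd : Module.finrank F A' ≤ 2 * (j + 1) := by
    refine (Submodule.finrank_le A').trans (le_of_eq ?_)
    simp [two_mul]
  have hcd : c = 2 * (j + 1) - Module.finrank F A' := finrank_perp A'
  have hcardA : Nat.card A = 2 ^ Module.finrank F A' := by
    rw [show Nat.card A = Nat.card A' from rfl, Module.natCard_eq_pow_finrank (K := F),
      Nat.card_eq_fintype_card, hF]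
  by_cases hc0 : c = 0
  · left
    rw [← AddSubgroup.card_eq_iff_eq_top, hcardA, Nat.card_eq_fintype_card, Fintype.card_fun,
      Fintype.card_sum, Fintype.card_fin, hF]
    congr 1; omega
  by_cases hcfull : c = 2 * (j + 1)
  · right
    have hA1 : Nat.card A = 1 := by rw [hcardA, show Module.finrank F A' = 0 by omega, pow_zero]
    refine ⟨AddSubgroup.card_eq_one.mp hA1, ?_⟩
    rw [hA1, mul_one] at hkey
    have hZ : Nat.card Z = 2 := by
      by_contra hne
      have h1 : Nat.card Z = 1 := by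
        have : 0 < Nat.card Z := Nat.card_pos
        omega
      rw [h1, mul_one] at hkey
      have : 2 * X ≤ Nat.card Ω := le_trans (Nat.le_mul_of_pos_left _ hk1) hkey
      have : 0 < 2 ^ (j + 1) := by positivity
      omega
    have hZt : Z = ⊤ := by
      rw [← AddSubgroup.card_eq_iff_eq_top, hZ, Nat.card_eq_fintype_card, hF]
    exact mem_zSub.mp (by show (1 : F) ∈ Z; rw [hZt]; trivial)
  exfalso
  have hkN : k * 2 ^ c ≤ Nat.card Ω := by
    refine Nat.le_of_mul_le_mul_right ?_ (show 0 < 2 * Nat.card A by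
      have : 0 < Nat.card A := Nat.card_pos
      omega)
    calc k * 2 ^ c * (2 * Nat.card A) = k * (2 * (2 ^ c * Nat.card A)) := by ring
      _ = k * (2 * X) := by rw [hcardA, ← pow_add, hX]; congr 3; omega
      _ ≤ Nat.card Ω * (Nat.card Z * Nat.card A) := hkey
      _ ≤ Nat.card Ω * (2 * Nat.card A) := Nat.mul_le_mul_left _ (Nat.mul_le_mul_right _ hZ2)
  -- the keeper fixes `C`
  have hfixA : ∀ l ∈ keep (n := j + 1) (F := F) ω, l • A' = A' := fun l hl => by
    ext x
    rw [mem_smul_iff]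
    refine ⟨fun h => ?_, fun h => keep_aImg ((keep (n := j + 1) (F := F) ω).inv_mem hl) h⟩
    have := keep_aImg hl (show act l⁻¹ x ∈ A from h)
    rwa [act_act_inv] at this
  have hfixC : ∀ l ∈ keep (n := j + 1) (F := F) ω, l • C = C := fun l hl => by
    rw [hC, smul_perp, hfixA l hl]
  have h2c : 2 ≤ 2 ^ c := Nat.le_self_pow hc0 2
  have hj : 2 ^ (j + 1) ≥ 2 := Nat.le_self_pow (by omega) 2
  by_cases hR : C ⊓ perp C = ⊥
  swap
  · have hti : TI (C ⊓ perp C) := fun x hx y hy => mem_perp.mp hy.2 x hx.1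
    have h1 := ti_orbit_ge j _ hR hti
    rw [hF, show (2 : ℕ) - 1 = 1 from rfl, mul_one, ← hX] at h1
    have h2 := index_ge_orbit (C ⊓ perp C) (card_orbit_eq_one (H := keep (n := j + 1) (F := F) ω)
      fun l hl => by rw [smul_inf, hfixC l hl, smul_perp, hfixC l hl])
    rw [mul_one, ← hk] at h2
    have : 2 * (X - 1) ≤ 2 ^ c * k := Nat.mul_le_mul h2c (h1.trans h2)
    have : 2 ^ c * k = k * 2 ^ c := mul_comm _ _
    omega
  · have hCne : C ≠ ⊥ := fun h => hc0 (by rw [hc, h, finrank_bot])
    have h1 := nondeg_orbit_ge C hCne hR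
    rw [hF, ← hX, ← hc] at h1
    have h2 := index_ge_orbit C (card_orbit_eq_one (H := keep (n := j + 1) (F := F) ω) hfixC)
    rw [mul_one, ← hk] at h2
    set Y := 2 ^ c with hY
    set W := 2 ^ (2 * (j + 1) - c) with hW
    have hYW : Y * W = X := by rw [hY, hW, ← pow_add, hX]; congr 1; omega
    have hW2 : 2 ≤ W := Nat.le_self_pow (by omega) 2
    have h3 : (X - 1) * W ≤ k * (Y - 1) := h1.trans (Nat.mul_le_mul_right _ h2)
    have h4 : Y * ((X - 1) * W) ≤ Nat.card Ω * (Y - 1) := by
      refine (Nat.mul_le_mul_left Y h3).trans ?_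
      calc Y * (k * (Y - 1)) = k * Y * (Y - 1) := by ring
        _ ≤ _ := Nat.mul_le_mul_right _ hkN
    have h5 : Nat.card Ω * (Y - 1) ≤ 2 * X * (Y - 1) := Nat.mul_le_mul_right _ (by omega)
    have h6 : 2 * Y ≤ X := by rw [← hYW, mul_comm 2]; exact Nat.mul_le_mul_left _ hW2
    have h7 : X * (X - 1) ≤ X * (2 * (Y - 1)) := by
      calc X * (X - 1) = Y * ((X - 1) * W) := by rw [← hYW]; ring
        _ ≤ 2 * X * (Y - 1) := h4.trans h5
        _ = _ := by ring
    have := Nat.le_of_mul_le_mul_left h7 (by omega)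
    omega

end Cfsg.Agent.H2.MinTwo
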